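-- TEAM PROJECT S1444 (B-G Theorem 3.6).  Package statements, as `Prop`-valued definitions.
-- Each package `P` is to be proved as `theorem ... : P` in its own file.
import Mathlib
import Cfsg.Prelude.Def_Local
import Cfsg.Prelude.Def_OddOrderLocal

set_option autoImplicit false

namespace Cfsg.Agent.Lib.Helper23.BG36

universe u

/-- **P1 (orbit/parity lemma).**  `A` abelian `p'`-group, `T` a `p`-group, `a` of prime order `r`
acting fixed-point-freely on `T`; all normalize the elementary abelian `p`-group `V`, `T` and `a`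
normalize `A`, `C_V(a)` is cyclic, `p`, `r` odd and distinct.  Then `[A, T]` centralizes `V`. -/
def LemmaW : Prop :=
  ∀ {X : Type u} [Group X] [Finite X] (p r : ℕ), p.Prime → r.Prime → p ≠ 2 → r ≠ 2 → p ≠ r →
    ∀ (V A T : Subgroup X) (a : X),
    (∀ v ∈ V, v ^ p = 1) → (∀ v ∈ V, ∀ w ∈ V, v * w = w * v) →
    (∀ x ∈ A, ∀ y ∈ A, x * y = y * x) → (Nat.card A).Coprime p → Odd (Nat.card A) →
    IsPGroup p T →
    A ≤ Subgroup.normalizer (V : Set X) → T ≤ Subgroup.normalizer (V : Set X) →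
    a ∈ Subgroup.normalizer (V : Set X) →
    T ≤ Subgroup.normalizer (A : Set X) → a ∈ Subgroup.normalizer (A : Set X) →
    a ∈ Subgroup.normalizer (T : Set X) →
    a ^ r = 1 → (∀ t ∈ T, a * t = t * a → t = 1) →
    IsCyclic ↥(V ⊓ Subgroup.centralizer ({a} : Set X)) →
    ∀ x ∈ A, ∀ t ∈ T, ∀ v ∈ V, (x * t * x⁻¹ * t⁻¹) * v = v * (x * t * x⁻¹ * t⁻¹)

/-- **P2 (the minimal `Q` is abelian).**  `Q` a solvable `p'`-group of odd order acting faithfully on
the elementary abelian `p`-group `V`; `T` a `p`-group acting on `Q` and `V`; `a ∈ R` of prime order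
`r` acting fixed-point-freely on `T`; `R` normalizes `Q` and `T`, of order coprime to `Q`;
`C_V(a)` cyclic, `C_Q(a)` a Z-group; `T` centralizes every proper `T`- and `R`-invariant subgroup
of `Q` but not `Q`.  Then `Q` is abelian. -/
def LemmaNonab : Prop :=
  ∀ {X : Type u} [Group X] [Finite X] (p r : ℕ), p.Prime → r.Prime → p ≠ 2 → r ≠ 2 → p ≠ r →
    ∀ (V Q T R : Subgroup X) (a : X),
    (∀ v ∈ V, v ^ p = 1) → (∀ v ∈ V, ∀ w ∈ V, v * w = w * v) →
    Group.IsSolvable Q → Odd (Nat.card Q) → (Nat.card Q).Coprime p → (Nat.card Q).Coprime r →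
    (Nat.card R).Coprime (Nat.card Q) → Group.IsSolvable R →
    IsPGroup p T →
    Q ≤ Subgroup.normalizer (V : Set X) → T ≤ Subgroup.normalizer (V : Set X) →
    a ∈ Subgroup.normalizer (V : Set X) →
    T ≤ Subgroup.normalizer (Q : Set X) → R ≤ Subgroup.normalizer (Q : Set X) →
    R ≤ Subgroup.normalizer (T : Set X) → a ∈ R →
    a ^ r = 1 → (∀ t ∈ T, a * t = t * a → t = 1) →
    IsCyclic ↥(V ⊓ Subgroup.centralizer ({a} : Set X)) →
    IsZGroup ↥(Q ⊓ Subgroup.centralizer ({a} : Set X)) →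
    Q ⊓ Subgroup.centralizer (V : Set X) = ⊥ →
    (∀ Q₂ : Subgroup X, Q₂ ≤ Q → Q₂ ≠ Q → T ≤ Subgroup.normalizer (Q₂ : Set X) →
      R ≤ Subgroup.normalizer (Q₂ : Set X) → T ≤ Subgroup.centralizer (Q₂ : Set X)) →
    ¬ T ≤ Subgroup.centralizer (Q : Set X) →
    ∀ x ∈ Q, ∀ y ∈ Q, x * y = y * x

/-- **P3 (Z-group case).**  `Q ⊴ N`, `R` normalizes `N` and `Q`, `N = [N, R]`, `Q` a Z-group of
order prime to `p`, `T ≤ N` a `p`-group.  Then `T` centralizes `Q`. -/
def LemmaZ : Prop :=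
  ∀ {X : Type u} [Group X] [Finite X] (p : ℕ), p.Prime →
    ∀ (Q T N R : Subgroup X),
    Q ≤ N → T ≤ N → N ≤ Subgroup.normalizer (Q : Set X) →
    R ≤ Subgroup.normalizer (N : Set X) → R ≤ Subgroup.normalizer (Q : Set X) →
    N ≤ ⁅N, R⁆ → IsZGroup ↥Q → IsPGroup p T → (Nat.card Q).Coprime p →
    T ≤ Subgroup.centralizer (Q : Set X)

/-- **P5 (B-G Theorem 3.4, internal form).**  `Q` solvable of odd order prime to `p` and `r`,
`a` with `a ^ r = 1` normalizing `Q` and the `p`-group `V`, `Q` normalizing `V`, and `C_V(a) = 1`.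
Then `[a, Q]` centralizes `V`. -/
def LemmaFpf : Prop :=
  ∀ {X : Type u} [Group X] [Finite X] (p r : ℕ), p.Prime → r.Prime → p ≠ r →
    ∀ (V Q : Subgroup X) (a : X),
    IsPGroup p V → Q ≤ Subgroup.normalizer (V : Set X) → a ∈ Subgroup.normalizer (V : Set X) →
    a ∈ Subgroup.normalizer (Q : Set X) → a ^ r = 1 →
    Group.IsSolvable Q → Odd (Nat.card Q) → (Nat.card Q).Coprime p → (Nat.card Q).Coprime r →
    (∀ v ∈ V, a * v = v * a → v = 1) →
    ∀ g ∈ Q, ∀ v ∈ V, (a * g * a⁻¹ * g⁻¹) * v = v * (a * g * a⁻¹ * g⁻¹)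

/-- **P6 (invariant complement).**  `V` an abelian normal subgroup of `L` of order coprime to its
index in `L`, with `C_V(L) = 1`; `R` normalizes `V` and `L`, `|R|` coprime to `|V|`.  Then `V` has a
complement `Q` in `L` normalized by `R`. -/
def LemmaCompl : Prop :=
  ∀ {X : Type u} [Group X] [Finite X] (V L R : Subgroup X),
    V ≤ L → L ≤ Subgroup.normalizer (V : Set X) → R ≤ Subgroup.normalizer (V : Set X) →
    R ≤ Subgroup.normalizer (L : Set X) → (∀ v ∈ V, ∀ w ∈ V, v * w = w * v) →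
    (Nat.card V).Coprime (V.relIndex L) → (Nat.card R).Coprime (Nat.card V) →
    V ⊓ Subgroup.centralizer (L : Set X) = ⊥ →
    ∃ Q : Subgroup X, Q ≤ L ∧ V ⊓ Q = ⊥ ∧ V ⊔ Q = L ∧ R ≤ Subgroup.normalizer (Q : Set X)

end Cfsg.Agent.Lib.Helper23.BG36
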