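-- B-G Theorem 3.6: the induction statement and the quotient transport.
import Mathlib
import Cfsg.Prelude.Def_Local
import Cfsg.Prelude.Def_OddOrderLocal
import Cfsg.Agent.Lib.Helper23.PGroupEA
import Cfsg.Agent.Lib.Helper23.BG36.Defs

set_option autoImplicit false

namespace Cfsg.Agent.Lib.Helper23.BG36

universe u

open Subgroup
open scoped commutatorElement

/-- internal `p`-length-one series for `K`, normalized by `K ⊔ R`. -/
def HasSeries {X : Type u} [Group X] (p : ℕ) (K R : Subgroup X) : Prop :=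
  ∃ A B : Subgroup X, A ≤ B ∧ B ≤ K ∧ K ⊔ R ≤ normalizer (A : Set X) ∧
    K ⊔ R ≤ normalizer (B : Set X) ∧
    (Nat.card A).Coprime p ∧ (∃ k : ℕ, A.relIndex B = p ^ k) ∧ (B.relIndex K).Coprime p

/-- The induction statement at level `n`. -/
def StmtLE (p n : ℕ) : Prop :=
  ∀ (X : Type u) [Group X] [Finite X] [Group.IsSolvable X], Odd (Nat.card X) →
    ∀ (H R R₀ : Subgroup X), Nat.card H ≤ n → R ≤ normalizer (H : Set X) →
      (Nat.card H).Coprime (Nat.card R) → R₀ ≤ R → (Nat.card R₀).Prime →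
      IsZGroup ↥(H ⊓ centralizer (R₀ : Set X)) → HasSeries p ⁅H, R⁆ R

/-- Coprime action of an `r`-group `E` on a coset `h₁ W` that it stabilizes: a fixed point. -/
theorem exists_fixed_in_coset {X : Type*} [Group X] [Finite X] {r : ℕ} [Fact r.Prime]
    (E W : Subgroup X) (hE : IsPGroup r E) (hEW : E ≤ normalizer (W : Set X))
    (hW : ¬ r ∣ Nat.card W) (h₁ : X) (hh : ∀ g ∈ E, h₁⁻¹ * (g * h₁ * g⁻¹) ∈ W) :
    ∃ w ∈ W, ∀ g ∈ E, g * (h₁ * w) * g⁻¹ = h₁ * w := by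
  classical
  let S : Set X := {x | h₁⁻¹ * x ∈ W}
  have hSfin : S.Finite := Set.toFinite S
  have hinv : ∀ g : ↥E, ∀ s ∈ S, E.subtype g * s * (E.subtype g)⁻¹ ∈ S := by
    intro g s hs
    show h₁⁻¹ * ((g : X) * s * (g : X)⁻¹) ∈ W
    have h1 := hh g g.2
    have h2 : (g : X) * (h₁⁻¹ * s) * (g : X)⁻¹ ∈ W :=
      (Subgroup.le_normalizer_iff.mp hEW) g g.2 _ hs
    have h3 : h₁⁻¹ * ((g : X) * s * (g : X)⁻¹) =
        h₁⁻¹ * ((g : X) * h₁ * (g : X)⁻¹) * ((g : X) * (h₁⁻¹ * s) * (g : X)⁻¹) := by group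
    rw [h3]
    exact W.mul_mem h1 h2
  have key := Cfsg.Agent.Lib.Helper23.card_modEq_card_fixed_conj hE E.subtype S hSfin hinv
  have hcard : Nat.card S = Nat.card W := by
    refine Nat.card_congr ⟨fun x => ⟨h₁⁻¹ * x.1, x.2⟩, fun w => ⟨h₁ * w.1, ?_⟩, ?_, ?_⟩
    · show h₁⁻¹ * (h₁ * w.1) ∈ W
      rw [inv_mul_cancel_left]; exact w.2
    · intro x; apply Subtype.ext; simp
    · intro w; apply Subtype.ext; simp
  rw [hcard] at key
  have hne : Nat.card {s : X // s ∈ S ∧ ∀ g : ↥E, E.subtype g * s * (E.subtype g)⁻¹ = s} ≠ 0 := by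
    intro h0
    rw [h0] at key
    exact hW ((Nat.modEq_zero_iff_dvd).mp key)
  have hnon : Nonempty {s : X // s ∈ S ∧ ∀ g : ↥E, E.subtype g * s * (E.subtype g)⁻¹ = s} := by
    by_contra hcon
    rw [not_nonempty_iff] at hcon
    exact hne Nat.card_of_isEmpty
  obtain ⟨⟨s, hsS, hsfix⟩⟩ := hnon
  refine ⟨h₁⁻¹ * s, hsS, ?_⟩
  intro g hg
  rw [mul_inv_cancel_left]
  exact hsfix ⟨g, hg⟩


/-- **Quotient transport.**  From the induction hypothesis, a `p`-series of `H / W`, pulled back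
to `H`, for `W ≠ 1` normalized by `H` and `R`, when `[H, R] = H`. -/
theorem quot_transport (p n : ℕ) (IH : StmtLE.{u} p n)
    {X : Type u} [Group X] [Finite X] [Group.IsSolvable X] (hodd : Odd (Nat.card X))
    (H R R₀ W : Subgroup X) (hcard : Nat.card H ≤ n + 1) (hRH : R ≤ normalizer (H : Set X))
    (hcop : (Nat.card H).Coprime (Nat.card R)) (hR₀ : R₀ ≤ R) (hprime : (Nat.card R₀).Prime)
    (hZ : IsZGroup ↥(H ⊓ centralizer (R₀ : Set X))) (hHR : ⁅H, R⁆ = H) (hWH : W ≤ H)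
    (hW1 : W ≠ ⊥) (hHW : H ≤ normalizer (W : Set X)) (hRW : R ≤ normalizer (W : Set X)) :
    ∃ A B : Subgroup X, W ≤ A ∧ A ≤ B ∧ B ≤ H ∧ H ⊔ R ≤ normalizer (A : Set X) ∧
      H ⊔ R ≤ normalizer (B : Set X) ∧ (W.relIndex A).Coprime p ∧
      (∃ k : ℕ, A.relIndex B = p ^ k) ∧ (B.relIndex H).Coprime p := by
  classical
  set NW : Subgroup X := normalizer (W : Set X) with hNW
  have hWN : W ≤ NW := le_normalizer
  let W' : Subgroup ↥NW := W.subgroupOf NW
  have hW'n : W'.Normal := Subgroup.normal_in_normalizer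
  let π : ↥NW →* ↥NW ⧸ W' := QuotientGroup.mk' W'
  have hπs : Function.Surjective π := QuotientGroup.mk'_surjective W'
  have hker : π.ker = W' := QuotientGroup.ker_mk' W'
  let im : Subgroup X → Subgroup (↥NW ⧸ W') := fun S => (S.subgroupOf NW).map π
  have mem_im : ∀ (S : Subgroup X) (x : X) (hx : x ∈ NW), x ∈ S → π ⟨x, hx⟩ ∈ im S :=
    fun S x hx hxS => Subgroup.mem_map.mpr ⟨⟨x, hx⟩, Subgroup.mem_subgroupOf.mpr hxS, rfl⟩
  have im_lift : ∀ (S : Subgroup X), ∀ y ∈ im S, ∃ x, ∃ hx : x ∈ NW, x ∈ S ∧ π ⟨x, hx⟩ = y := by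
    intro S y hy
    obtain ⟨z, hz, rfl⟩ := Subgroup.mem_map.mp hy
    exact ⟨z.1, z.2, Subgroup.mem_subgroupOf.mp hz, rfl⟩
  have π_one : ∀ (x : X) (hx : x ∈ NW), π ⟨x, hx⟩ = 1 ↔ x ∈ W := by
    intro x hx
    rw [← MonoidHom.mem_ker, hker]
    exact Subgroup.mem_subgroupOf
  have hcardW : Nat.card W * W.relIndex H = Nat.card H := by
    have := Subgroup.relIndex_mul_relIndex (⊥ : Subgroup X) W H bot_le hWH
    rwa [Subgroup.relIndex_bot_left, Subgroup.relIndex_bot_left] at this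
  have hcardim : ∀ S : Subgroup X, W ≤ S → S ≤ NW → Nat.card (im S) = W.relIndex S := by
    intro S hWS hSN
    have h1 := Subgroup.relIndex_map_map π (⊥ : Subgroup ↥NW) (S.subgroupOf NW)
    rw [Subgroup.map_bot, Subgroup.relIndex_bot_left, hker, bot_sup_eq] at h1
    have h2 : S.subgroupOf NW ⊔ W' = S.subgroupOf NW := by
      apply sup_eq_left.mpr
      intro x hx
      exact Subgroup.mem_subgroupOf.mpr (hWS (Subgroup.mem_subgroupOf.mp hx))
    rw [h2] at h1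
    rw [show Nat.card (im S) = Nat.card ((S.subgroupOf NW).map π) from rfl, h1]
    exact Subgroup.relIndex_subgroupOf hSN
  have hcardim_dvd : ∀ S : Subgroup X, S ≤ NW → Nat.card (im S) ∣ Nat.card S := by
    intro S hSN
    have h1 : Nat.card ((S.subgroupOf NW).map π) ∣ Nat.card (S.subgroupOf NW) :=
      Subgroup.card_map_dvd _ π
    rwa [Nat.card_congr (Subgroup.subgroupOfEquivOfLe hSN).toEquiv] at h1
  -- hypotheses in the quotient
  have hodd' : Odd (Nat.card (↥NW ⧸ W')) := by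
    have h1 : Nat.card (↥NW ⧸ W') ∣ Nat.card X := by
      have h2 : Nat.card (↥NW ⧸ W') = W'.index := rfl
      rw [h2]
      exact (Subgroup.index_dvd_card W').trans (Subgroup.card_subgroup_dvd_card NW)
    exact Odd.of_dvd_nat hodd h1
  have hWcard : 1 < Nat.card W := by
    rw [Subgroup.one_lt_card_iff_ne_bot]; exact hW1
  have hHpos : 0 < Nat.card H := Nat.card_pos
  have hcardH' : Nat.card (im H) ≤ n := by
    rw [hcardim H hWH hHW]
    have hpos : 0 < W.relIndex H := by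
      rcases Nat.eq_zero_or_pos (W.relIndex H) with h0 | h0
      · rw [h0, mul_zero] at hcardW; omega
      · exact h0
    nlinarith
  have hR'H' : im R ≤ normalizer (im H : Set (↥NW ⧸ W')) := by
    rw [Subgroup.le_normalizer_iff]
    intro y hy z hz
    obtain ⟨x, hx, hxR, rfl⟩ := im_lift R y hy
    obtain ⟨h, hh, hhH, rfl⟩ := im_lift H z hz
    have h1 : x * h * x⁻¹ ∈ H := (Subgroup.le_normalizer_iff.mp hRH) x hxR h hhH
    have h2 := mem_im H (x * h * x⁻¹) (NW.mul_mem (NW.mul_mem hx hh) (NW.inv_mem hx)) h1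
    have h3 : π ⟨x * h * x⁻¹, NW.mul_mem (NW.mul_mem hx hh) (NW.inv_mem hx)⟩ =
        π ⟨x, hx⟩ * π ⟨h, hh⟩ * (π ⟨x, hx⟩)⁻¹ := by
      rw [← map_inv, ← map_mul, ← map_mul]; rfl
    rwa [h3] at h2
  have hcop' : (Nat.card (im H)).Coprime (Nat.card (im R)) :=
    Nat.Coprime.coprime_dvd_left (hcardim_dvd H hHW)
      (Nat.Coprime.coprime_dvd_right (hcardim_dvd R hRW) hcop)
  have hR₀' : im R₀ ≤ im R := by
    intro y hy
    obtain ⟨x, hx, hxR, rfl⟩ := im_lift R₀ y hy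
    exact mem_im R x hx (hR₀ hxR)
  have hR₀N : R₀ ≤ NW := hR₀.trans hRW
  have hWR₀ : W ⊓ R₀ = ⊥ := by
    apply Subgroup.inf_eq_bot_of_coprime
    exact Nat.Coprime.coprime_dvd_left (Subgroup.card_dvd_of_le hWH)
      (Nat.Coprime.coprime_dvd_right (Subgroup.card_dvd_of_le hR₀) hcop)
  have hcardR₀' : Nat.card (im R₀) = Nat.card R₀ := by
    have h1 := Subgroup.relIndex_map_map π (⊥ : Subgroup ↥NW) (R₀.subgroupOf NW)
    rw [Subgroup.map_bot, Subgroup.relIndex_bot_left, hker, bot_sup_eq,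
      Subgroup.relIndex_sup_right, ← Subgroup.inf_relIndex_right] at h1
    have h2 : W' ⊓ R₀.subgroupOf NW = ⊥ := by
      rw [eq_bot_iff]
      intro x hx
      have h3 : (x : X) ∈ W ⊓ R₀ :=
        ⟨Subgroup.mem_subgroupOf.mp hx.1, Subgroup.mem_subgroupOf.mp hx.2⟩
      rw [hWR₀] at h3
      exact Subgroup.mem_bot.mpr (Subtype.ext (Subgroup.mem_bot.mp h3))
    rw [h2, Subgroup.relIndex_bot_left] at h1
    rw [show Nat.card (im R₀) = Nat.card ((R₀.subgroupOf NW).map π) from rfl, h1]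
    exact Nat.card_congr (Subgroup.subgroupOfEquivOfLe hR₀N).toEquiv
  have hprime' : (Nat.card (im R₀)).Prime := by rw [hcardR₀']; exact hprime
  have hrF : Fact (Nat.card R₀).Prime := ⟨hprime⟩
  have hR₀p : IsPGroup (Nat.card R₀) R₀ := IsPGroup.of_card (n := 1) (by rw [pow_one])
  have hrW : ¬ Nat.card R₀ ∣ Nat.card W := by
    intro hdvd
    have h1 : (Nat.card R₀).Coprime (Nat.card R₀) :=
      Nat.Coprime.coprime_dvd_left (hdvd.trans (Subgroup.card_dvd_of_le hWH))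
        (Nat.Coprime.coprime_dvd_right (Subgroup.card_dvd_of_le hR₀) hcop)
    rw [Nat.coprime_self] at h1
    exact hprime.one_lt.ne' h1
  have hZ' : IsZGroup ↥(im H ⊓ centralizer (im R₀ : Set (↥NW ⧸ W'))) := by
    let f₀ : ↥(H ⊓ centralizer (R₀ : Set X)) →* ↥NW ⧸ W' :=
      π.comp (Subgroup.inclusion (inf_le_left.trans hHW))
    have hf₀ : ∀ x, f₀ x ∈ im H ⊓ centralizer (im R₀ : Set (↥NW ⧸ W')) := by
      intro x
      refine ⟨mem_im H x.1 (hHW x.2.1) x.2.1, ?_⟩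
      refine Subgroup.mem_centralizer_iff.mpr ?_
      intro z hz
      obtain ⟨g, hg, hgR, rfl⟩ := im_lift R₀ z hz
      have h1 : g * x.1 = x.1 * g := (Subgroup.mem_centralizer_iff.mp x.2.2) g hgR
      show π ⟨g, hg⟩ * π ⟨x.1, hHW x.2.1⟩ = π ⟨x.1, hHW x.2.1⟩ * π ⟨g, hg⟩
      rw [← map_mul, ← map_mul]
      congr 1
      exact Subtype.ext h1
    let f : ↥(H ⊓ centralizer (R₀ : Set X)) →* ↥(im H ⊓ centralizer (im R₀ : Set (↥NW ⧸ W'))) :=
      f₀.codRestrict _ hf₀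
    have hf : Function.Surjective f := by
      rintro ⟨y, hyH, hyC⟩
      obtain ⟨h₁, hh₁, hh₁H, rfl⟩ := im_lift H y hyH
      have hh : ∀ g ∈ R₀, h₁⁻¹ * (g * h₁ * g⁻¹) ∈ W := by
        intro g hg
        have hgN : g ∈ NW := hR₀N hg
        have h1 := (Subgroup.mem_centralizer_iff.mp hyC) (π ⟨g, hgN⟩) (mem_im R₀ g hgN hg)
        have hmem : h₁⁻¹ * (g * h₁ * g⁻¹) ∈ NW :=
          NW.mul_mem (NW.inv_mem hh₁) (NW.mul_mem (NW.mul_mem hgN hh₁) (NW.inv_mem hgN))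
        rw [← π_one _ hmem]
        have h2 : π ⟨h₁⁻¹ * (g * h₁ * g⁻¹), hmem⟩ =
            (π ⟨h₁, hh₁⟩)⁻¹ * (π ⟨g, hgN⟩ * π ⟨h₁, hh₁⟩ * (π ⟨g, hgN⟩)⁻¹) := by
          rw [← map_inv, ← map_inv, ← map_mul, ← map_mul, ← map_mul]; rfl
        rw [h2, h1, mul_inv_cancel_right, inv_mul_cancel]
      obtain ⟨w, hw, hfix⟩ := exists_fixed_in_coset R₀ W hR₀p hR₀N hrW h₁ hh
      have hxH : h₁ * w ∈ H := H.mul_mem hh₁H (hWH hw)
      have hxC : h₁ * w ∈ centralizer (R₀ : Set X) := by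
        rw [Subgroup.mem_centralizer_iff]
        intro g hg
        have := hfix g hg
        calc g * (h₁ * w) = g * (h₁ * w) * g⁻¹ * g := by group
          _ = h₁ * w * g := by rw [this]
      refine ⟨⟨h₁ * w, hxH, hxC⟩, ?_⟩
      apply Subtype.ext
      show π ⟨h₁ * w, hHW hxH⟩ = π ⟨h₁, hh₁⟩
      have h3 : (⟨h₁ * w, hHW hxH⟩ : ↥NW) = ⟨h₁, hh₁⟩ * ⟨w, hWN hw⟩ := rfl
      rw [h3, map_mul, (π_one w (hWN hw)).mpr hw, mul_one]
    exact IsZGroup.of_surjective hf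
  obtain ⟨A'', B'', hAB, hBK, hnA, hnB, hAc, ⟨k, hk⟩, hBc⟩ :=
    IH (↥NW ⧸ W') hodd' (im H) (im R) (im R₀) hcardH' hR'H' hcop' hR₀' hprime' hZ'
  have hcomm : ⁅im H, im R⁆ = im H := by
    apply le_antisymm
    · rw [Subgroup.commutator_le]
      intro y hy z hz
      obtain ⟨h, hh, hhH, rfl⟩ := im_lift H y hy
      obtain ⟨x, hx, hxR, rfl⟩ := im_lift R z hz
      have h1 : ⁅h, x⁆ ∈ H := by
        rw [← hHR]; exact Subgroup.commutator_mem_commutator hhH hxR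
      have hmem : ⁅h, x⁆ ∈ NW := hHW h1
      have h2 := mem_im H ⁅h, x⁆ hmem h1
      have h3 : π ⟨⁅h, x⁆, hmem⟩ = ⁅π ⟨h, hh⟩, π ⟨x, hx⟩⁆ := by
        rw [← map_commutatorElement]; rfl
      rwa [h3] at h2
    · have h1 : ⁅H, R⁆ ≤ ((⁅im H, im R⁆).comap π).map NW.subtype := by
        rw [Subgroup.commutator_le]
        intro h hhH x hxR
        have hh : h ∈ NW := hHW hhH
        have hx : x ∈ NW := hRW hxR
        refine ⟨⟨⁅h, x⁆, NW.mul_mem (NW.mul_mem (NW.mul_mem hh hx) (NW.inv_mem hh)) (NW.inv_mem hx)⟩, ?_, rfl⟩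
        show π _ ∈ ⁅im H, im R⁆
        have h3 : π ⟨⁅h, x⁆, NW.mul_mem (NW.mul_mem (NW.mul_mem hh hx) (NW.inv_mem hh)) (NW.inv_mem hx)⟩ =
            ⁅π ⟨h, hh⟩, π ⟨x, hx⟩⁆ := by
          rw [← map_commutatorElement]; rfl
        rw [h3]
        exact Subgroup.commutator_mem_commutator (mem_im H h hh hhH) (mem_im R x hx hxR)
      intro y hy
      obtain ⟨h, hh, hhH, rfl⟩ := im_lift H y hy
      rw [← hHR] at hhH
      obtain ⟨z, hz, hzeq⟩ := h1 hhH
      have : z = ⟨h, hh⟩ := Subtype.ext hzeq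
      rw [← this]
      exact hz
  rw [hcomm] at hBK hnA hnB hBc
  have hsubinj : Function.Injective NW.subtype := NW.subtype_injective
  have hnorm : ∀ C'' : Subgroup (↥NW ⧸ W'), im H ⊔ im R ≤ normalizer (C'' : Set (↥NW ⧸ W')) →
      H ⊔ R ≤ normalizer (((C''.comap π).map NW.subtype : Subgroup X) : Set X) := by
    intro C'' hC
    have key : ∀ g : X, ∀ hgN : g ∈ NW, π ⟨g, hgN⟩ ∈ im H ⊔ im R →
        ∀ c ∈ (C''.comap π).map NW.subtype, g * c * g⁻¹ ∈ (C''.comap π).map NW.subtype := by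
      rintro g hgN hπg _ ⟨y, hy, rfl⟩
      have h2 := (Subgroup.le_normalizer_iff.mp hC) _ hπg (π y) hy
      refine ⟨⟨g, hgN⟩ * y * ⟨g, hgN⟩⁻¹, ?_, rfl⟩
      show π (⟨g, hgN⟩ * y * ⟨g, hgN⟩⁻¹) ∈ C''
      rw [map_mul, map_mul, map_inv]
      exact h2
    refine sup_le ?_ ?_
    · rw [Subgroup.le_normalizer_iff]
      intro g hg c hc
      exact key g (hHW hg) (Subgroup.mem_sup_left (mem_im H g (hHW hg) hg)) c hc
    · rw [Subgroup.le_normalizer_iff]
      intro g hg c hc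
      exact key g (hRW hg) (Subgroup.mem_sup_right (mem_im R g (hRW hg) hg)) c hc
  refine ⟨(A''.comap π).map NW.subtype, (B''.comap π).map NW.subtype, ?_, ?_, ?_, ?_, ?_, ?_,
    ⟨k, ?_⟩, ?_⟩
  · intro x hx
    exact ⟨⟨x, hWN hx⟩, by
      show π ⟨x, hWN hx⟩ ∈ A''
      rw [(π_one x (hWN hx)).mpr hx]; exact A''.one_mem, rfl⟩
  · exact Subgroup.map_mono (Subgroup.comap_mono hAB)
  · rintro _ ⟨y, hy, rfl⟩
    have hy' : π y ∈ im H := hBK hy
    obtain ⟨h, hh, hhH, hπ⟩ := im_lift H (π y) hy'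
    have h1 : π (⟨h, hh⟩⁻¹ * y) = 1 := by rw [map_mul, map_inv, hπ, inv_mul_cancel]
    have h2 : (h⁻¹ * (y : X)) ∈ W := by
      have := (π_one (h⁻¹ * (y : X)) (NW.mul_mem (NW.inv_mem hh) y.2)).mp h1
      exact this
    have h3 : (y : X) = h * (h⁻¹ * (y : X)) := by group
    show (y : X) ∈ H
    rw [h3]
    exact H.mul_mem hhH (hWH h2)
  · exact hnorm A'' hnA
  · exact hnorm B'' hnB
  · have h1 : W'.map NW.subtype = W := Subgroup.map_subgroupOf_eq_of_le hWN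
    have h2 : W' = (⊥ : Subgroup (↥NW ⧸ W')).comap π := by
      rw [MonoidHom.comap_bot]; exact hker.symm
    have e : W.relIndex ((A''.comap π).map NW.subtype) = Nat.card A'' := by
      calc W.relIndex ((A''.comap π).map NW.subtype)
          = (W'.map NW.subtype).relIndex ((A''.comap π).map NW.subtype) := by rw [h1]
        _ = W'.relIndex (A''.comap π) := Subgroup.relIndex_map_map_of_injective _ _ hsubinj
        _ = ((⊥ : Subgroup (↥NW ⧸ W')).comap π).relIndex (A''.comap π) :=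
            congrArg (fun S => S.relIndex (A''.comap π)) h2
        _ = (⊥ : Subgroup (↥NW ⧸ W')).relIndex ((A''.comap π).map π) := Subgroup.relIndex_comap _ _ _
        _ = Nat.card A'' := by
            rw [Subgroup.map_comap_eq_self_of_surjective hπs, Subgroup.relIndex_bot_left]
    rw [e]
    exact hAc
  · rw [Subgroup.relIndex_map_map_of_injective _ _ hsubinj, Subgroup.relIndex_comap,
      Subgroup.map_comap_eq_self_of_surjective hπs]
    exact hk
  · have h1 : H = (H.subgroupOf NW).map NW.subtype := by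
      rw [Subgroup.map_subgroupOf_eq_of_le hHW]
    rw [h1, Subgroup.relIndex_map_map_of_injective _ _ hsubinj, Subgroup.relIndex_comap]
    exact hBc

end Cfsg.Agent.Lib.Helper23.BG36
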