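-- TEAM PROJECT S1444 (B-G Theorem 3.6).  Second batch of package statements (P7-P12).
import Mathlib
import Cfsg.Prelude.Def_Local
import Cfsg.Prelude.Def_OddOrderLocal
import Cfsg.Agent.Lib.Helper23.BG36.Quot

set_option autoImplicit false

namespace Cfsg.Agent.Lib.Helper23.BG36

universe u

open Subgroup

/-- **P7.**  `V`, `T` `p`-groups with `T` normalizing `V`, `V ∩ T = 1`, whose centralizers of `a`
lie in a Z-group `C`.  If `a` centralizes a non-identity element of `V`, it centralizes no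
non-identity element of `T`. -/
def LemmaX : Prop :=
  ∀ {X : Type u} [Group X] [Finite X] (p : ℕ), p.Prime → ∀ (V T C : Subgroup X) (a : X),
    IsPGroup p V → IsPGroup p T → T ≤ normalizer (V : Set X) → V ⊓ T = ⊥ → IsZGroup ↥C →
    V ⊓ centralizer ({a} : Set X) ≤ C → T ⊓ centralizer ({a} : Set X) ≤ C →
    (∃ v ∈ V, v ≠ 1 ∧ a * v = v * a) → ∀ t ∈ T, a * t = t * a → t = 1

/-- **P8 (structure and endgame).**  `V ≤ L ≤ B ≤ H` invariant under `H` and `R`, with factors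
`p`, `p'`, `p`, `p'`; `Q` an `R`-invariant complement of `V` in `L` with `C_V(Q) = 1`.  Then
`H = V N` with `N = N_H(Q)`, `V ∩ N = 1`, there is an `R`-invariant Sylow `p`-subgroup `T` of `N`,
and if `T` centralizes `Q` then `H` has a normal `R`-invariant Sylow `p`-subgroup. -/
def LemmaEnd : Prop :=
  ∀ {X : Type u} [Group X] [Finite X] [Group.IsSolvable X] (p : ℕ), p.Prime →
    ∀ (H R V L B Q : Subgroup X),
    R ≤ normalizer (H : Set X) → (Nat.card H).Coprime (Nat.card R) →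
    V ≤ L → L ≤ B → B ≤ H →
    H ⊔ R ≤ normalizer (V : Set X) → H ⊔ R ≤ normalizer (L : Set X) →
    H ⊔ R ≤ normalizer (B : Set X) →
    IsPGroup p V → (V.relIndex L).Coprime p → (∃ k : ℕ, L.relIndex B = p ^ k) →
    (B.relIndex H).Coprime p →
    Q ≤ L → V ⊓ Q = ⊥ → V ⊔ Q = L → R ≤ normalizer (Q : Set X) →
    V ⊓ centralizer (Q : Set X) = ⊥ →
    ∃ T : Subgroup X, T ≤ H ⊓ normalizer (Q : Set X) ∧ IsPGroup p T ∧
      R ≤ normalizer (T : Set X) ∧
      V ⊓ (H ⊓ normalizer (Q : Set X)) = ⊥ ∧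
      (∀ h ∈ H, ∃ v ∈ V, ∃ n ∈ H ⊓ normalizer (Q : Set X), h = v * n) ∧
      (T ≤ centralizer (Q : Set X) →
        ∃ S : Subgroup X, S ≤ H ∧ H ⊔ R ≤ normalizer (S : Set X) ∧ IsPGroup p S ∧
          (S.relIndex H).Coprime p)

/-- **P9.**  An internal series gives `p`-length at most one. -/
def LemmaSeries : Prop :=
  ∀ {X : Type u} [Group X] [Finite X] (p : ℕ), p.Prime → ∀ (K R : Subgroup X),
    HasSeries p K R → Cfsg.PLengthLE p 1 ↥K

/-- **P10 (minimal counterexample).**  If all proper `R`-invariant subgroups `H₂` of `H` have a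
series for `[H₂, R]`, then `T` centralizes every proper `T`- and `R`-invariant subgroup of `Q`. -/
def LemmaMin : Prop :=
  ∀ {X : Type u} [Group X] [Finite X] (p : ℕ), p.Prime → ∀ (H V Q T R : Subgroup X),
    V ≤ H → Q ≤ H → T ≤ H → H ≤ normalizer (V : Set X) → R ≤ normalizer (V : Set X) →
    IsPGroup p V → (Nat.card Q).Coprime p → IsPGroup p T →
    T ≤ normalizer (Q : Set X) → R ≤ normalizer (Q : Set X) → R ≤ normalizer (T : Set X) →
    V ⊓ (H ⊓ normalizer (Q : Set X)) = ⊥ →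
    Q ⊓ centralizer (V : Set X) = ⊥ → T ≤ ⁅T, R⁆ →
    (∀ H₂ : Subgroup X, H₂ ≤ H → H₂ ≠ H → R ≤ normalizer (H₂ : Set X) →
      HasSeries p ⁅H₂, R⁆ R) →
    ∀ Q₂ : Subgroup X, Q₂ ≤ Q → Q₂ ≠ Q → T ≤ normalizer (Q₂ : Set X) →
      R ≤ normalizer (Q₂ : Set X) → T ≤ centralizer (Q₂ : Set X)

/-- **P11.**  A minimal `Γ`-invariant subgroup of `H` is an elementary abelian `p`-group when `H`
has no nontrivial `Γ`-invariant `p'`-subgroup. -/
def LemmaMinNormal : Prop :=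
  ∀ {X : Type u} [Group X] [Finite X] [Group.IsSolvable X] (p : ℕ), p.Prime →
    ∀ (H Γ : Subgroup X),
    H ≤ Γ → Γ ≤ normalizer (H : Set X) → H ≠ ⊥ →
    (∀ N : Subgroup X, N ≤ H → Γ ≤ normalizer (N : Set X) → (Nat.card N).Coprime p → N = ⊥) →
    ∃ V : Subgroup X, V ≤ H ∧ V ≠ ⊥ ∧ Γ ≤ normalizer (V : Set X) ∧ (∀ v ∈ V, v ^ p = 1) ∧
      (∀ v ∈ V, ∀ w ∈ V, v * w = w * v) ∧
      ∀ V₂ : Subgroup X, V₂ ≤ V → Γ ≤ normalizer (V₂ : Set X) → V₂ = ⊥ ∨ V₂ = V

/-- **P12.**  `C_L(V) = V` for an abelian normal `p`-subgroup `V` of `L` with `p'` index, when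
`L` has no nontrivial `Γ`-invariant `p'`-subgroup. -/
def LemmaFaith : Prop :=
  ∀ {X : Type u} [Group X] [Finite X] (p : ℕ), p.Prime → ∀ (V L Γ : Subgroup X),
    V ≤ L → L ≤ Γ → Γ ≤ normalizer (V : Set X) → Γ ≤ normalizer (L : Set X) →
    IsPGroup p V → (∀ v ∈ V, ∀ w ∈ V, v * w = w * v) → (V.relIndex L).Coprime p →
    (∀ N : Subgroup X, N ≤ L → Γ ≤ normalizer (N : Set X) → (Nat.card N).Coprime p → N = ⊥) →
    L ⊓ centralizer (V : Set X) = V

end Cfsg.Agent.Lib.Helper23.BG36
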