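-- B-G Theorem 3.6: assembly of the induction from the packages.
import Mathlib
import Cfsg.Prelude.Def_Local
import Cfsg.Prelude.Def_OddOrderLocal
import Cfsg.Agent.Lib.Helper23.BG36.Defs2
import Cfsg.Agent.Lib.Helper27.BG36LemmaCompl
import Cfsg.Agent.S0026
import Cfsg.Agent.S0027

set_option autoImplicit false

namespace Cfsg.Agent.Lib.Helper23.BG36

universe u

open Subgroup
open scoped commutatorElement

theorem m_norm_comm {X : Type*} [Group X] (H K Γ : Subgroup X)
    (hH : Γ ≤ normalizer (H : Set X)) (hK : Γ ≤ normalizer (K : Set X)) :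
    Γ ≤ normalizer ((⁅H, K⁆ : Subgroup X) : Set X) := by
  rw [Subgroup.le_normalizer_iff]
  intro g hg x hx
  have h1 : ⁅H, K⁆ ≤ (⁅H, K⁆).comap (MulAut.conj g).toMonoidHom := by
    rw [Subgroup.commutator_le]
    intro h hh k hk
    show g * ⁅h, k⁆ * g⁻¹ ∈ ⁅H, K⁆
    have h2 : g * ⁅h, k⁆ * g⁻¹ = ⁅g * h * g⁻¹, g * k * g⁻¹⁆ := by
      simp only [commutatorElement_def]; group
    rw [h2]
    exact Subgroup.commutator_mem_commutator ((Subgroup.le_normalizer_iff.mp hH) g hg h hh)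
      ((Subgroup.le_normalizer_iff.mp hK) g hg k hk)
  exact h1 hx

theorem m_norm_inf {X : Type*} [Group X] (H K Γ : Subgroup X)
    (hH : Γ ≤ normalizer (H : Set X)) (hK : Γ ≤ normalizer (K : Set X)) :
    Γ ≤ normalizer ((H ⊓ K : Subgroup X) : Set X) := by
  rw [Subgroup.le_normalizer_iff] at *
  intro g hg x hx
  exact ⟨hH g hg x hx.1, hK g hg x hx.2⟩

theorem m_norm_cent {X : Type*} [Group X] (L Γ : Subgroup X)
    (hL : Γ ≤ normalizer (L : Set X)) :
    Γ ≤ normalizer ((centralizer (L : Set X) : Subgroup X) : Set X) := by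
  rw [Subgroup.le_normalizer_iff]
  intro g hg c hc
  rw [Subgroup.mem_centralizer_iff] at hc ⊢
  intro l hl
  have h1 : g⁻¹ * l * g ∈ L := by
    have := (Subgroup.le_normalizer_iff.mp hL) g⁻¹ (Γ.inv_mem hg) l hl
    rwa [inv_inv] at this
  have h2 := hc _ h1
  calc l * (g * c * g⁻¹) = g * ((g⁻¹ * l * g) * c) * g⁻¹ := by group
    _ = g * (c * (g⁻¹ * l * g)) * g⁻¹ := by rw [h2]
    _ = g * c * g⁻¹ * l := by group

theorem m_norm_norm {X : Type*} [Group X] (Q Γ : Subgroup X)
    (hQ : Γ ≤ normalizer (Q : Set X)) :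
    Γ ≤ normalizer ((normalizer (Q : Set X) : Subgroup X) : Set X) := hQ.trans le_normalizer

theorem m_card_of_le {X : Type*} [Group X] (A B : Subgroup X) (h : A ≤ B) :
    Nat.card A * A.relIndex B = Nat.card B := by
  have := Subgroup.relIndex_mul_relIndex (⊥ : Subgroup X) A B bot_le h
  rwa [Subgroup.relIndex_bot_left, Subgroup.relIndex_bot_left] at this

theorem m_mem_sup {X : Type*} [Group X] (V M : Subgroup X) (hM : M ≤ normalizer (V : Set X))
    (x : X) (hx : x ∈ V ⊔ M) : ∃ v ∈ V, ∃ m ∈ M, x = v * m := by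
  have h := Subgroup.coe_mul_of_right_le_normalizer_left V M hM
  have hx' : x ∈ ((V ⊔ M : Subgroup X) : Set X) := hx
  rw [h] at hx'
  obtain ⟨v, hv, m, hm, rfl⟩ := Set.mem_mul.mp hx'
  exact ⟨v, hv, m, hm, rfl⟩

theorem m_comm_le {X : Type*} [Group X] (H R : Subgroup X) (hRH : R ≤ normalizer (H : Set X)) :
    ⁅H, R⁆ ≤ H := by
  rw [Subgroup.commutator_le]
  intro h hh x hx
  have h1 : x * h⁻¹ * x⁻¹ ∈ H := (Subgroup.le_normalizer_iff.mp hRH) x hx _ (H.inv_mem hh)
  have h2 : ⁅h, x⁆ = h * (x * h⁻¹ * x⁻¹) := by rw [commutatorElement_def]; group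
  rw [h2]; exact H.mul_mem hh h1

theorem m_gen {X : Type*} [Group X] [Finite X] (R₀ : Subgroup X) (hprime : (Nat.card R₀).Prime) :
    ∃ a ∈ R₀, a ^ (Nat.card R₀) = 1 ∧
      centralizer (R₀ : Set X) = centralizer ({a} : Set X) := by
  have h1 : R₀ ≠ ⊥ := by
    intro h; rw [h, Subgroup.card_bot] at hprime; exact Nat.not_prime_one hprime
  obtain ⟨⟨a, ha⟩, ha1⟩ := (Subgroup.ne_bot_iff_exists_ne_one).mp h1
  have ha1' : a ≠ 1 := fun h => ha1 (Subtype.ext h)
  have hle : zpowers a ≤ R₀ := (Subgroup.zpowers_le).mpr ha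
  have hzp : zpowers a = R₀ := by
    apply Subgroup.eq_of_le_of_card_ge hle
    have hd : Nat.card (zpowers a) ∣ Nat.card R₀ := Subgroup.card_dvd_of_le hle
    rcases (Nat.dvd_prime hprime).mp hd with h | h
    · exfalso
      have : zpowers a = ⊥ := Subgroup.card_eq_one.mp h
      exact ha1' (Subgroup.zpowers_eq_bot.mp this)
    · exact h.ge
  refine ⟨a, ha, ?_, ?_⟩
  · have h2 : ((⟨a, ha⟩ : ↥R₀) ^ Nat.card ↥R₀ : ↥R₀) = 1 := pow_card_eq_one'
    have h3 : (((⟨a, ha⟩ : ↥R₀) ^ Nat.card ↥R₀ : ↥R₀) : X) = ((1 : ↥R₀) : X) :=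
      congrArg Subtype.val h2
    rw [Subgroup.coe_pow, Subgroup.coe_one] at h3
    exact h3
  · ext x
    rw [Subgroup.mem_centralizer_iff, Subgroup.mem_centralizer_iff]
    constructor
    · intro h g hg
      rw [Set.mem_singleton_iff] at hg
      rw [hg]
      exact h a ha
    · intro h g hg
      have hg' : g ∈ zpowers a := by rw [hzp]; exact hg
      obtain ⟨k, rfl⟩ := Subgroup.mem_zpowers_iff.mp hg'
      have hax : Commute a x := h a rfl
      exact (hax.zpow_left k).eq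

/-- The heart of the induction step: `T` centralizes `Q`. -/
theorem step_TQ (hW : LemmaW.{u}) (hNonab : LemmaNonab.{u}) (hLZ : LemmaZ.{u})
    (hFpf : LemmaFpf.{u}) (hLX : LemmaX.{u}) (hMin : LemmaMin.{u})
    (p : ℕ) (hp : p.Prime) (n : ℕ) (IH : StmtLE.{u} p n)
    {X : Type u} [Group X] [Finite X] [Group.IsSolvable X] (hodd : Odd (Nat.card X))
    (H R R₀ : Subgroup X) (hcard : Nat.card H ≤ n + 1) (hRH : R ≤ normalizer (H : Set X))
    (hcop : (Nat.card H).Coprime (Nat.card R)) (hR₀ : R₀ ≤ R) (hprime : (Nat.card R₀).Prime)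
    (hZ : IsZGroup ↥(H ⊓ centralizer (R₀ : Set X))) (hHR : ⁅H, R⁆ = H)
    (V Q T : Subgroup X) (hVH : V ≤ H) (hV1 : V ≠ ⊥) (hΓV : H ⊔ R ≤ normalizer (V : Set X))
    (hVexp : ∀ v ∈ V, v ^ p = 1) (hVab : ∀ v ∈ V, ∀ w ∈ V, v * w = w * v)
    (hQH : Q ≤ H) (hRQ : R ≤ normalizer (Q : Set X)) (hQp : (Nat.card Q).Coprime p)
    (hQV : Q ⊓ centralizer (V : Set X) = ⊥)
    (hTN : T ≤ H ⊓ normalizer (Q : Set X)) (hTp : IsPGroup p T)
    (hRT : R ≤ normalizer (T : Set X))
    (hVN : V ⊓ (H ⊓ normalizer (Q : Set X)) = ⊥)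
    (hprod : ∀ h ∈ H, ∃ v ∈ V, ∃ m ∈ H ⊓ normalizer (Q : Set X), h = v * m) :
    T ≤ centralizer (Q : Set X) := by
  classical
  have hpF : Fact p.Prime := ⟨hp⟩
  obtain ⟨a, haR₀, har, hcent⟩ := m_gen R₀ hprime
  set r := Nat.card R₀ with hr
  have haR : a ∈ R := hR₀ haR₀
  have hHV : H ≤ normalizer (V : Set X) := le_sup_left.trans hΓV
  have hRV : R ≤ normalizer (V : Set X) := le_sup_right.trans hΓV
  have hVp : IsPGroup p V := by
    intro v
    refine ⟨1, ?_⟩
    rw [pow_one]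
    exact Subtype.ext (by simpa using hVexp v.1 v.2)
  have hpV : p ∣ Nat.card V := by
    obtain ⟨k, hk⟩ := (IsPGroup.iff_card.mp hVp)
    have h1 : 1 < Nat.card V := (Subgroup.one_lt_card_iff_ne_bot V).mpr hV1
    rw [hk] at h1 ⊢
    have hk0 : k ≠ 0 := by rintro rfl; simp at h1
    exact dvd_pow_self p hk0
  have hpH : p ∣ Nat.card H := hpV.trans (Subgroup.card_dvd_of_le hVH)
  have hrR : r ∣ Nat.card R := Subgroup.card_dvd_of_le hR₀
  have hpr : p ≠ r := by
    intro h
    have h1 : p ∣ Nat.gcd (Nat.card H) (Nat.card R) := Nat.dvd_gcd hpH (h ▸ hrR)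
    rw [Nat.Coprime.gcd_eq_one hcop] at h1
    exact hp.one_lt.ne' (Nat.dvd_one.mp h1)
  have hp2 : p ≠ 2 := by
    rintro rfl
    have : 2 ∣ Nat.card X := hpH.trans (Subgroup.card_subgroup_dvd_card H)
    exact (Nat.not_even_iff_odd.mpr hodd) (even_iff_two_dvd.mpr this)
  have hr2 : r ≠ 2 := by
    intro h
    have : 2 ∣ Nat.card X := h ▸ (hrR.trans (Subgroup.card_subgroup_dvd_card R))
    exact (Nat.not_even_iff_odd.mpr hodd) (even_iff_two_dvd.mpr this)
  have hQodd : Odd (Nat.card Q) := Odd.of_dvd_nat hodd (Subgroup.card_subgroup_dvd_card Q)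
  have hQR : (Nat.card R).Coprime (Nat.card Q) :=
    (Nat.Coprime.coprime_dvd_left (Subgroup.card_dvd_of_le hQH) hcop).symm
  have hQr : (Nat.card Q).Coprime r := Nat.Coprime.coprime_dvd_right hrR hQR.symm
  have haV : a ∈ normalizer (V : Set X) := hRV haR
  have haQ : a ∈ normalizer (Q : Set X) := hRQ haR
  have haT : a ∈ normalizer (T : Set X) := hRT haR
  set N : Subgroup X := H ⊓ normalizer (Q : Set X) with hN
  have hTH : T ≤ H := hTN.trans inf_le_left
  have hTQn : T ≤ normalizer (Q : Set X) := hTN.trans inf_le_right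
  have hQN : Q ≤ N := le_inf hQH le_normalizer
  have hQVn : Q ≤ normalizer (V : Set X) := hQH.trans hHV
  have hTV : T ≤ normalizer (V : Set X) := hTH.trans hHV
  by_cases hfp : ∀ v ∈ V, a * v = v * a → v = 1
  · -- `a` fixed-point-free on `V`
    have h5 := hFpf p r hp hprime hpr V Q a hVp hQVn haV haQ har inferInstance hQodd hQp hQr hfp
    have hQa : Q ≤ centralizer ({a} : Set X) := by
      intro g hg
      rw [Subgroup.mem_centralizer_iff]
      intro b hb
      rw [Set.mem_singleton_iff] at hb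
      rw [hb]
      have hmemQ : a * g * a⁻¹ * g⁻¹ ∈ Q :=
        Q.mul_mem ((Subgroup.mem_normalizer_iff.mp haQ g).mp hg) (Q.inv_mem hg)
      have hmemC : a * g * a⁻¹ * g⁻¹ ∈ centralizer (V : Set X) := by
        rw [Subgroup.mem_centralizer_iff]
        intro v hv
        exact (h5 g hg v hv).symm
      have h1 : a * g * a⁻¹ * g⁻¹ ∈ Q ⊓ centralizer (V : Set X) := ⟨hmemQ, hmemC⟩
      rw [hQV, Subgroup.mem_bot] at h1
      calc a * g = (a * g * a⁻¹ * g⁻¹) * g * a := by group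
        _ = g * a := by rw [h1, one_mul]
    have hQZ : IsZGroup ↥Q := by
      have hle : Q ≤ H ⊓ centralizer (R₀ : Set X) := le_inf hQH (hcent ▸ hQa)
      exact IsZGroup.of_injective (f := Subgroup.inclusion hle) (Subgroup.inclusion_injective hle)
    have hRN : R ≤ normalizer (N : Set X) := m_norm_inf H _ R hRH (m_norm_norm Q R hRQ)
    have hcomN : ⁅N, R⁆ ≤ N := m_comm_le N R hRN
    have hNle : N ≤ ⁅N, R⁆ := by
      have hMV : ⁅N, R⁆ ≤ normalizer (V : Set X) := hcomN.trans (inf_le_left.trans hHV)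
      have hHle : ⁅H, R⁆ ≤ V ⊔ ⁅N, R⁆ := by
        rw [Subgroup.commutator_le]
        intro h hh x hx
        obtain ⟨v, hv, m, hm, rfl⟩ := hprod h hh
        have h1 : x * v⁻¹ * x⁻¹ ∈ V := (Subgroup.le_normalizer_iff.mp hRV) x hx _ (V.inv_mem hv)
        have h2 : ⁅v * m, x⁆ = v * ⁅m, x⁆ * (x * v⁻¹ * x⁻¹) := by
          simp only [commutatorElement_def]; group
        rw [h2]
        exact Subgroup.mul_mem _ (Subgroup.mul_mem _ (Subgroup.mem_sup_left hv)
          (Subgroup.mem_sup_right (Subgroup.commutator_mem_commutator hm hx)))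
          (Subgroup.mem_sup_left h1)
      rw [hHR] at hHle
      intro m hm
      obtain ⟨v, hv, c, hc, rfl⟩ := m_mem_sup V ⁅N, R⁆ hMV m (hHle hm.1)
      have hvN : v ∈ N := by
        have : v = (v * c) * c⁻¹ := by group
        rw [this]; exact N.mul_mem hm (N.inv_mem (hcomN hc))
      have hv1 : v ∈ V ⊓ N := ⟨hv, hvN⟩
      rw [hVN, Subgroup.mem_bot] at hv1
      rw [hv1, one_mul]; exact hc
    exact hLZ p hp Q T N R hQN hTN inf_le_right hRN hRQ hNle hQZ hTp hQp
  · push Not at hfp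
    obtain ⟨v₀, hv₀V, hv₀a, hv₀1⟩ := hfp
    set C : Subgroup X := H ⊓ centralizer (R₀ : Set X) with hC
    have hVC : V ⊓ centralizer ({a} : Set X) ≤ C := by
      rw [← hcent]; exact inf_le_inf_right _ hVH
    have hTC : T ⊓ centralizer ({a} : Set X) ≤ C := by
      rw [← hcent]; exact inf_le_inf_right _ hTH
    have hQC : Q ⊓ centralizer ({a} : Set X) ≤ C := by
      rw [← hcent]; exact inf_le_inf_right _ hQH
    have hVT : V ⊓ T = ⊥ := by
      rw [eq_bot_iff, ← hVN]; exact inf_le_inf_left _ hTN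
    have hTfp : ∀ t ∈ T, a * t = t * a → t = 1 :=
      hLX p hp V T C a hVp hTp hTV hVT hZ hVC hTC ⟨v₀, hv₀V, hv₀1, hv₀a⟩
    have hR₀T : R₀ ≤ normalizer (T : Set X) := hR₀.trans hRT
    have hcopT : (Nat.card R₀).Coprime (Nat.card T) :=
      (Nat.Coprime.coprime_dvd_left (Subgroup.card_dvd_of_le hTH)
        (Nat.Coprime.coprime_dvd_right (Subgroup.card_dvd_of_le hR₀) hcop)).symm
    have h26 := Cfsg.Agent.S0026.result R₀ T hR₀T hcopT (Or.inr inferInstance)
    have hTcent : T ⊓ centralizer (R₀ : Set X) = ⊥ := by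
      rw [eq_bot_iff]
      intro t ht
      rw [hcent] at ht
      have h1 : a * t = t * a := (Subgroup.mem_centralizer_iff.mp ht.2) a rfl
      exact Subgroup.mem_bot.mpr (hTfp t ht.1 h1)
    rw [hTcent, sup_bot_eq] at h26
    have hTcomm : T ≤ ⁅T, R⁆ := by
      calc T = ⁅T, R₀⁆ := h26.symm
        _ ≤ ⁅T, R⁆ := Subgroup.commutator_mono le_rfl hR₀
    by_contra hTQ
    have hIH : ∀ H₂ : Subgroup X, H₂ ≤ H → H₂ ≠ H → R ≤ normalizer (H₂ : Set X) →
        HasSeries p ⁅H₂, R⁆ R := by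
      intro H₂ hH₂ hne hRH₂
      have hlt : Nat.card H₂ < Nat.card H := by
        by_contra hcon
        exact hne (Subgroup.eq_of_le_of_card_ge hH₂ (not_lt.mp hcon))
      have hZ₂ : IsZGroup ↥(H₂ ⊓ centralizer (R₀ : Set X)) :=
        IsZGroup.of_injective (f := Subgroup.inclusion (inf_le_inf_right _ hH₂))
          (Subgroup.inclusion_injective _)
      exact IH X hodd H₂ R R₀ (by omega) hRH₂
        (Nat.Coprime.coprime_dvd_left (Subgroup.card_dvd_of_le hH₂) hcop) hR₀ hprime hZ₂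
    have hmin := hMin p hp H V Q T R hVH hQH hTH hHV hRV hVp hQp hTp hTQn hRQ hRT hVN hQV
      hTcomm hIH
    have hVcyc : IsCyclic ↥(V ⊓ centralizer ({a} : Set X)) := by
      have hP : IsPGroup p ↥(V ⊓ centralizer ({a} : Set X)) := hVp.to_le inf_le_left
      have : IsZGroup ↥(V ⊓ centralizer ({a} : Set X)) :=
        IsZGroup.of_injective (f := Subgroup.inclusion hVC) (Subgroup.inclusion_injective _)
      have : Group.IsNilpotent ↥(V ⊓ centralizer ({a} : Set X)) := hP.isNilpotent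
      infer_instance
    have hQZa : IsZGroup ↥(Q ⊓ centralizer ({a} : Set X)) :=
      IsZGroup.of_injective (f := Subgroup.inclusion hQC) (Subgroup.inclusion_injective _)
    have hQab := hNonab p r hp hprime hp2 hr2 hpr V Q T R a hVexp hVab inferInstance hQodd hQp hQr
      hQR inferInstance hTp hQVn hTV haV hTQn hRQ hRT haR har hTfp hVcyc hQZa hQV hmin hTQ
    have h1 := hW p r hp hprime hp2 hr2 hpr V Q T a hVexp hVab hQab hQp hQodd hTp hQVn hTV haV
      hTQn haQ haT har hTfp hVcyc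
    apply hTQ
    intro t ht
    rw [Subgroup.mem_centralizer_iff]
    intro x hx
    have hmemQ : x * t * x⁻¹ * t⁻¹ ∈ Q := by
      have h2 : t * x⁻¹ * t⁻¹ ∈ Q := (Subgroup.le_normalizer_iff.mp hTQn) t ht _ (Q.inv_mem hx)
      have h3 : x * t * x⁻¹ * t⁻¹ = x * (t * x⁻¹ * t⁻¹) := by group
      rw [h3]; exact Q.mul_mem hx h2
    have hmemC : x * t * x⁻¹ * t⁻¹ ∈ centralizer (V : Set X) := by
      rw [Subgroup.mem_centralizer_iff]
      intro v hv
      exact (h1 x hx t ht v hv).symm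
    have h4 : x * t * x⁻¹ * t⁻¹ ∈ Q ⊓ centralizer (V : Set X) := ⟨hmemQ, hmemC⟩
    rw [hQV, Subgroup.mem_bot] at h4
    calc x * t = (x * t * x⁻¹ * t⁻¹) * t * x := by group
      _ = t * x := by rw [h4, one_mul]

theorem m_norm_bot {X : Type*} [Group X] (Γ : Subgroup X) :
    Γ ≤ normalizer (((⊥ : Subgroup X) : Subgroup X) : Set X) := by
  rw [Subgroup.le_normalizer_iff]
  intro g _ x hx
  rw [Subgroup.mem_bot] at hx ⊢
  rw [hx]; group

/-- The case `[H, R] = H` of the induction step. -/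
theorem step_core (hW : LemmaW.{u}) (hNonab : LemmaNonab.{u}) (hLZ : LemmaZ.{u})
    (hFpf : LemmaFpf.{u}) (hCompl : LemmaCompl.{u}) (hLX : LemmaX.{u}) (hEnd : LemmaEnd.{u})
    (hMin : LemmaMin.{u}) (hMinN : LemmaMinNormal.{u}) (hFaith : LemmaFaith.{u})
    (p : ℕ) (hp : p.Prime) (n : ℕ) (IH : StmtLE.{u} p n)
    {X : Type u} [Group X] [Finite X] [Group.IsSolvable X] (hodd : Odd (Nat.card X))
    (H R R₀ : Subgroup X) (hcard : Nat.card H ≤ n + 1) (hRH : R ≤ normalizer (H : Set X))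
    (hcop : (Nat.card H).Coprime (Nat.card R)) (hR₀ : R₀ ≤ R) (hprime : (Nat.card R₀).Prime)
    (hZ : IsZGroup ↥(H ⊓ centralizer (R₀ : Set X))) (hHR : ⁅H, R⁆ = H) :
    HasSeries p H R := by
  classical
  have hpF : Fact p.Prime := ⟨hp⟩
  have hΓH : H ⊔ R ≤ normalizer (H : Set X) := sup_le le_normalizer hRH
  by_cases hex : ∃ N : Subgroup X, N ≤ H ∧ N ≠ ⊥ ∧ H ⊔ R ≤ normalizer (N : Set X) ∧
      (Nat.card N).Coprime p
  · obtain ⟨N, hNH, hN1, hΓN, hNp⟩ := hex
    obtain ⟨A, B, hNA, hAB, hBH, hΓA, hΓB, hNAp, hk, hBp⟩ :=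
      quot_transport p n IH hodd H R R₀ N hcard hRH hcop hR₀ hprime hZ hHR hNH hN1
        (le_sup_left.trans hΓN) (le_sup_right.trans hΓN)
    refine ⟨A, B, hAB, hBH, hΓA, hΓB, ?_, hk, hBp⟩
    rw [← m_card_of_le N A hNA]
    exact Nat.Coprime.mul_left hNp hNAp
  · have hnoN : ∀ N : Subgroup X, N ≤ H → H ⊔ R ≤ normalizer (N : Set X) →
        (Nat.card N).Coprime p → N = ⊥ := by
      intro N hNH hΓN hNp
      by_contra hN1
      exact hex ⟨N, hNH, hN1, hΓN, hNp⟩
    by_cases hH1 : H = ⊥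
    · refine ⟨⊥, ⊥, le_rfl, bot_le, m_norm_bot _, m_norm_bot _, ?_, ⟨0, ?_⟩, ?_⟩
      · rw [Subgroup.card_bot]; exact Nat.coprime_one_left p
      · rw [Subgroup.relIndex_self, pow_zero]
      · rw [hH1, Subgroup.relIndex_self]; exact Nat.coprime_one_left p
    · obtain ⟨V, hVH, hV1, hΓV, hVexp, hVab, hVmin⟩ :=
        hMinN p hp H (H ⊔ R) le_sup_left hΓH hH1 hnoN
      have hVp : IsPGroup p V := by
        intro v
        refine ⟨1, ?_⟩
        rw [pow_one]
        exact Subtype.ext (by simpa using hVexp v.1 v.2)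
      obtain ⟨L, B, hVL, hLB, hBH, hΓL, hΓB, hVLp, ⟨k, hk⟩, hBp⟩ :=
        quot_transport p n IH hodd H R R₀ V hcard hRH hcop hR₀ hprime hZ hHR hVH hV1
          (le_sup_left.trans hΓV) (le_sup_right.trans hΓV)
      obtain ⟨j, hj⟩ := IsPGroup.iff_card.mp hVp
      by_cases hLV : L = V
      · refine ⟨⊥, B, bot_le, hBH, m_norm_bot _, hΓB, ?_, ⟨j + k, ?_⟩, hBp⟩
        · rw [Subgroup.card_bot]; exact Nat.coprime_one_left p
        · rw [Subgroup.relIndex_bot_left, ← m_card_of_le L B hLB, hk, hLV, hj, pow_add]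
      · have hLH : L ≤ H := hLB.trans hBH
        have hnoL : ∀ N : Subgroup X, N ≤ L → H ⊔ R ≤ normalizer (N : Set X) →
            (Nat.card N).Coprime p → N = ⊥ :=
          fun N hNL => hnoN N (hNL.trans hLH)
        have hCLV : L ⊓ centralizer (V : Set X) = V :=
          hFaith p hp V L (H ⊔ R) hVL (hLH.trans le_sup_left) hΓV hΓL hVp hVab hVLp hnoL
        have hVCL : V ⊓ centralizer (L : Set X) = ⊥ := by
          have hΓ' : H ⊔ R ≤ normalizer ((V ⊓ centralizer (L : Set X) : Subgroup X) : Set X) :=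
            m_norm_inf V _ (H ⊔ R) hΓV (m_norm_cent L (H ⊔ R) hΓL)
          rcases hVmin _ inf_le_left hΓ' with h | h
          · exact h
          · exfalso
            apply hLV
            have h1 : V ≤ centralizer (L : Set X) := inf_eq_left.mp h
            have h2 : L ≤ centralizer (V : Set X) := by
              intro l hl
              rw [Subgroup.mem_centralizer_iff]
              intro v hv
              exact ((Subgroup.mem_centralizer_iff.mp (h1 hv)) l hl).symm
            have h3 : L ⊓ centralizer (V : Set X) = L := inf_eq_left.mpr h2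
            rw [← h3]; exact hCLV
        have hcardV_cop : (Nat.card V).Coprime (V.relIndex L) := by
          rw [hj]; exact Nat.Coprime.pow_left j hVLp.symm
        have hRVc : (Nat.card R).Coprime (Nat.card V) :=
          (Nat.Coprime.coprime_dvd_left (Subgroup.card_dvd_of_le hVH) hcop).symm
        have hLV' : L ≤ normalizer (V : Set X) := hLH.trans (le_sup_left.trans hΓV)
        obtain ⟨Q, hQL, hVQ, hVQL, hRQ⟩ := hCompl V L R hVL hLV'
          (le_sup_right.trans hΓV) (le_sup_right.trans hΓL) hVab hcardV_cop hRVc hVCL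
        have hQV : Q ⊓ centralizer (V : Set X) = ⊥ := by
          rw [eq_bot_iff]
          intro x hx
          have h1 : x ∈ L ⊓ centralizer (V : Set X) := ⟨hQL hx.1, hx.2⟩
          rw [hCLV] at h1
          have h2 : x ∈ V ⊓ Q := ⟨h1, hx.1⟩
          rwa [hVQ] at h2
        have hVCQ : V ⊓ centralizer (Q : Set X) = ⊥ := by
          rw [eq_bot_iff]
          intro v hv
          have h1 : v ∈ V ⊓ centralizer (L : Set X) := by
            refine ⟨hv.1, ?_⟩
            have h2 : V ⊔ Q ≤ centralizer ({v} : Set X) := by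
              refine sup_le ?_ ?_
              · intro w hw
                rw [Subgroup.mem_centralizer_iff]
                intro b hb
                rw [Set.mem_singleton_iff] at hb
                rw [hb]
                exact hVab v hv.1 w hw
              · intro q hq
                rw [Subgroup.mem_centralizer_iff]
                intro b hb
                rw [Set.mem_singleton_iff] at hb
                rw [hb]
                exact ((Subgroup.mem_centralizer_iff.mp hv.2) q hq).symm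
            rw [hVQL] at h2
            show v ∈ centralizer (L : Set X)
            rw [Subgroup.mem_centralizer_iff]
            intro l hl
            exact ((Subgroup.mem_centralizer_iff.mp (h2 hl)) v rfl).symm
          rwa [hVCL] at h1
        have hcardQ : Nat.card Q = V.relIndex L := by
          have h1 := Cfsg.Agent.Lib.Helper27.BG36.card_sup_mul_card_inf_nz V Q (hQL.trans hLV')
          rw [hVQ, hVQL, Subgroup.card_bot, mul_one] at h1
          have h2 := m_card_of_le V L hVL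
          have hVpos : 0 < Nat.card V := Nat.card_pos
          exact Nat.eq_of_mul_eq_mul_left hVpos (by rw [← h1, h2])
        have hQp : (Nat.card Q).Coprime p := by rw [hcardQ]; exact hVLp
        obtain ⟨T, hTN, hTp, hRT, hVN, hprod, hfin⟩ := hEnd p hp H R V L B Q hRH hcop hVL hLB hBH
          hΓV hΓL hΓB hVp hVLp ⟨k, hk⟩ hBp hQL hVQ hVQL hRQ hVCQ
        have hTQ : T ≤ centralizer (Q : Set X) :=
          step_TQ hW hNonab hLZ hFpf hLX hMin p hp n IH hodd H R R₀ hcard hRH hcop hR₀ hprime hZ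
            hHR V Q T hVH hV1 hΓV hVexp hVab (hQL.trans hLH) hRQ hQp hQV hTN hTp hRT hVN hprod
        obtain ⟨S, hSH, hΓS, hSp, hSHp⟩ := hfin hTQ
        obtain ⟨i, hi⟩ := IsPGroup.iff_card.mp hSp
        refine ⟨⊥, S, bot_le, hSH, m_norm_bot _, hΓS, ?_, ⟨i, ?_⟩, hSHp⟩
        · rw [Subgroup.card_bot]; exact Nat.coprime_one_left p
        · rw [Subgroup.relIndex_bot_left, hi]

/-- The induction step. -/
theorem step (hW : LemmaW.{u}) (hNonab : LemmaNonab.{u}) (hLZ : LemmaZ.{u})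
    (hFpf : LemmaFpf.{u}) (hCompl : LemmaCompl.{u}) (hLX : LemmaX.{u}) (hEnd : LemmaEnd.{u})
    (hMin : LemmaMin.{u}) (hMinN : LemmaMinNormal.{u}) (hFaith : LemmaFaith.{u})
    (p : ℕ) (hp : p.Prime) (n : ℕ) (IH : StmtLE.{u} p n) : StmtLE.{u} p (n + 1) := by
  intro X _ _ _ hodd H R R₀ hcard hRH hcop hR₀ hprime hZ
  have hRcomm : R ≤ normalizer ((⁅H, R⁆ : Subgroup X) : Set X) :=
    m_norm_comm H R R hRH le_normalizer
  have hcommle : ⁅H, R⁆ ≤ H := m_comm_le H R hRH
  by_cases hHR : ⁅H, R⁆ = H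
  · rw [hHR]
    exact step_core hW hNonab hLZ hFpf hCompl hLX hEnd hMin hMinN hFaith p hp n IH hodd H R R₀
      hcard hRH hcop hR₀ hprime hZ hHR
  · have hlt : Nat.card ↥⁅H, R⁆ < Nat.card H := by
      by_contra hcon
      exact hHR (Subgroup.eq_of_le_of_card_ge hcommle (not_lt.mp hcon))
    have h27 : ⁅⁅H, R⁆, R⁆ = ⁅H, R⁆ :=
      Cfsg.Agent.S0027.result R H hRH hcop.symm (Or.inr inferInstance)
    have hZ' : IsZGroup ↥(⁅H, R⁆ ⊓ centralizer (R₀ : Set X)) :=
      IsZGroup.of_injective (f := Subgroup.inclusion (inf_le_inf_right _ hcommle))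
        (Subgroup.inclusion_injective _)
    have h := IH X hodd ⁅H, R⁆ R R₀ (by omega) hRcomm
      (Nat.Coprime.coprime_dvd_left (Subgroup.card_dvd_of_le hcommle) hcop) hR₀ hprime hZ'
    rwa [h27] at h

theorem stmt_zero (p : ℕ) : StmtLE.{u} p 0 := by
  intro X _ _ _ hodd H R R₀ hcard
  have : 0 < Nat.card H := Nat.card_pos
  omega

theorem stmt_all (hW : LemmaW.{u}) (hNonab : LemmaNonab.{u}) (hLZ : LemmaZ.{u})
    (hFpf : LemmaFpf.{u}) (hCompl : LemmaCompl.{u}) (hLX : LemmaX.{u}) (hEnd : LemmaEnd.{u})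
    (hMin : LemmaMin.{u}) (hMinN : LemmaMinNormal.{u}) (hFaith : LemmaFaith.{u})
    (p : ℕ) (hp : p.Prime) : ∀ n : ℕ, StmtLE.{u} p n
  | 0 => stmt_zero p
  | n + 1 => step hW hNonab hLZ hFpf hCompl hLX hEnd hMin hMinN hFaith p hp n
      (stmt_all hW hNonab hLZ hFpf hCompl hLX hEnd hMin hMinN hFaith p hp n)

/-- **B-G Theorem 3.6**, from the packages. -/
theorem main (hW : LemmaW.{u}) (hNonab : LemmaNonab.{u}) (hLZ : LemmaZ.{u})
    (hFpf : LemmaFpf.{u}) (hCompl : LemmaCompl.{u}) (hLX : LemmaX.{u}) (hEnd : LemmaEnd.{u})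
    (hMin : LemmaMin.{u}) (hMinN : LemmaMinNormal.{u}) (hFaith : LemmaFaith.{u})
    (hSeries : LemmaSeries.{u})
    {G : Type u} [Group G] [Finite G] [Group.IsSolvable G]
    (hodd : Odd (Nat.card G)) (H R R₀ : Subgroup G) [H.Normal]
    (hHall : (Nat.card H).Coprime H.index) (hR : Subgroup.IsComplement' H R)
    (hR₀ : R₀ ≤ R) (hR₀p : (Nat.card R₀).Prime)
    (hZ : IsZGroup ↥(H ⊓ Subgroup.centralizer (R₀ : Set G))) (p : ℕ) [Fact p.Prime] :
    Cfsg.PLengthLE p 1 ↥⁅H, R⁆ := by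
  have hcardR : H.index = Nat.card R := hR.symm.index_eq_card
  have hcop : (Nat.card H).Coprime (Nat.card R) := by rw [← hcardR]; exact hHall
  have hRH : R ≤ normalizer (H : Set G) := by
    rw [Subgroup.normalizer_eq_top]; exact le_top
  have hs := stmt_all hW hNonab hLZ hFpf hCompl hLX hEnd hMin hMinN hFaith p Fact.out
    (Nat.card H) G hodd H R R₀ le_rfl hRH hcop hR₀ hR₀p hZ
  exact hSeries p Fact.out ⁅H, R⁆ R hs

end Cfsg.Agent.Lib.Helper23.BG36
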