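-- TEAM PROJECT S1444 (B-G Theorem 3.6): package P10 (LemmaMin).
import Mathlib
import Cfsg.Prelude.Def_Local
import Cfsg.Prelude.Def_OddOrderLocal
import Cfsg.Agent.Lib.Helper23.BG36.Main
import Cfsg.Agent.S0027

set_option autoImplicit false

namespace Cfsg.Agent.Lib.Helper23.BG36

universe u

open Subgroup
open scoped commutatorElement

theorem n_norm_sup {X : Type*} [Group X] (A B Γ : Subgroup X)
    (hA : Γ ≤ normalizer (A : Set X)) (hB : Γ ≤ normalizer (B : Set X)) :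
    Γ ≤ normalizer ((A ⊔ B : Subgroup X) : Set X) := by
  rw [Subgroup.le_normalizer_iff]
  intro g hg x hx
  have h1 : A ⊔ B ≤ (A ⊔ B).comap (MulAut.conj g).toMonoidHom := by
    refine sup_le ?_ ?_
    · intro a ha
      show g * a * g⁻¹ ∈ A ⊔ B
      exact Subgroup.mem_sup_left ((Subgroup.le_normalizer_iff.mp hA) g hg a ha)
    · intro b hb
      show g * b * g⁻¹ ∈ A ⊔ B
      exact Subgroup.mem_sup_right ((Subgroup.le_normalizer_iff.mp hB) g hg b hb)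
  exact h1 hx

theorem n_pow_relIndex_mem {X : Type*} [Group X] (B K : Subgroup X) (hBK : B ≤ K)
    (hK : K ≤ normalizer (B : Set X)) (x : X) (hx : x ∈ K) : x ^ (B.relIndex K) ∈ B := by
  have : (B.subgroupOf K).Normal := (Subgroup.normal_subgroupOf_iff_le_normalizer hBK).mpr hK
  have h1 := Subgroup.pow_index_mem (B.subgroupOf K) (⟨x, hx⟩ : ↥K)
  exact Subgroup.mem_subgroupOf.mp h1

theorem n_mem_of_pow_coprime {X : Type*} [Group X] (S : Subgroup X) (x : X) (a b : ℕ)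
    (hab : a.Coprime b) (ha : x ^ a ∈ S) (hb : x ^ b ∈ S) : x ∈ S := by
  have h1 := Nat.gcd_eq_gcd_ab a b
  rw [hab.gcd_eq_one] at h1
  have h2 : x = (x ^ a) ^ (Nat.gcdA a b) * (x ^ b) ^ (Nat.gcdB a b) := by
    rw [← zpow_natCast x a, ← zpow_natCast x b, ← zpow_mul, ← zpow_mul, ← zpow_add, ← h1]
    simp
  rw [h2]
  exact S.mul_mem (S.zpow_mem ha _) (S.zpow_mem hb _)

theorem n_comm_normal {X : Type*} [Group X] (H R : Subgroup X) :
    H ≤ normalizer ((⁅H, R⁆ : Subgroup X) : Set X) := by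
  rw [Subgroup.le_normalizer_iff]
  intro g hg x hx
  have h1 : ⁅H, R⁆ ≤ (⁅H, R⁆).comap (MulAut.conj g).toMonoidHom := by
    rw [Subgroup.commutator_le]
    intro h hh ρ hρ
    show g * ⁅h, ρ⁆ * g⁻¹ ∈ ⁅H, R⁆
    have h2 : g * ⁅h, ρ⁆ * g⁻¹ = ⁅g * h, ρ⁆ * ⁅g, ρ⁆⁻¹ := by
      simp only [commutatorElement_def]; group
    rw [h2]
    exact Subgroup.mul_mem _ (Subgroup.commutator_mem_commutator (H.mul_mem hg hh) hρ)
      (Subgroup.inv_mem _ (Subgroup.commutator_mem_commutator hg hρ))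
  exact h1 hx

theorem n_pow_card {X : Type*} [Group X] (S : Subgroup X) (x : X) (hx : x ∈ S) :
    x ^ Nat.card S = 1 := by
  have h3 : ((⟨x, hx⟩ : ↥S) ^ Nat.card ↥S : ↥S) = 1 := pow_card_eq_one'
  have h4 : (((⟨x, hx⟩ : ↥S) ^ Nat.card ↥S : ↥S) : X) = ((1 : ↥S) : X) := congrArg Subtype.val h3
  rw [Subgroup.coe_pow, Subgroup.coe_one] at h4
  exact h4

/-- **P10 (minimal counterexample)** of the S1444 project. -/
theorem lemmaMin : LemmaMin.{u} := by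
  intro X _ _ p hp H V Q T R hVH hQH hTH hHV hRV hVp hQp hTp hTQ hRQ hRT hVN hQV hTcomm hIH
    Q₂ hQ₂Q hQ₂ne hTQ₂ hRQ₂
  classical
  have : Fact p.Prime := ⟨hp⟩
  set M : Subgroup X := Q₂ ⊔ T with hM
  set H₂ : Subgroup X := V ⊔ M with hH₂
  have hQ₂H : Q₂ ≤ H := hQ₂Q.trans hQH
  have hMH : M ≤ H := sup_le hQ₂H hTH
  have hH₂H : H₂ ≤ H := sup_le hVH hMH
  have hRM : R ≤ normalizer (M : Set X) := n_norm_sup Q₂ T R hRQ₂ hRT
  have hRH₂ : R ≤ normalizer (H₂ : Set X) := n_norm_sup V M R hRV hRM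
  obtain ⟨i, hi⟩ := IsPGroup.iff_card.mp hTp
  obtain ⟨j, hj⟩ := IsPGroup.iff_card.mp hVp
  have hQT : Q ⊓ T = ⊥ := by
    apply disjoint_iff.mp
    apply Subgroup.disjoint_of_coprime_natCard
    rw [hi]; exact Nat.Coprime.pow_right i hQp
  have hne : H₂ ≠ H := by
    intro hEq
    apply hQ₂ne
    apply le_antisymm hQ₂Q
    intro x hx
    have hxH₂ : x ∈ H₂ := by rw [hEq]; exact hQH hx
    obtain ⟨v, hv, m, hm, rfl⟩ := m_mem_sup V M (hMH.trans hHV) x hxH₂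
    obtain ⟨q, hq, t, ht, rfl⟩ := m_mem_sup Q₂ T hTQ₂ m hm
    have hvN : v ∈ H ⊓ normalizer (Q : Set X) := by
      have h1 : v = (v * (q * t)) * (q * t)⁻¹ := by group
      rw [h1]
      refine Subgroup.mul_mem _ ⟨hQH hx, le_normalizer hx⟩ (Subgroup.inv_mem _ ?_)
      exact Subgroup.mul_mem _ ⟨hQ₂H hq, le_normalizer (hQ₂Q hq)⟩ ⟨hTH ht, hTQ ht⟩
    have hv1 : v ∈ V ⊓ (H ⊓ normalizer (Q : Set X)) := ⟨hv, hvN⟩
    rw [hVN, Subgroup.mem_bot] at hv1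
    rw [hv1, one_mul] at hx ⊢
    have ht1 : t ∈ Q ⊓ T := by
      refine ⟨?_, ht⟩
      have h1 : t = q⁻¹ * (q * t) := by group
      rw [h1]; exact Q.mul_mem (Q.inv_mem (hQ₂Q hq)) hx
    rw [hQT, Subgroup.mem_bot] at ht1
    rw [ht1, mul_one]; exact hq
  obtain ⟨A₂, B₂, hAB, hBK, hΓA, hΓB, hAp, ⟨k, hk⟩, hBp⟩ := hIH H₂ hH₂H hne hRH₂
  set K₂ : Subgroup X := ⁅H₂, R⁆ with hK₂
  have hK₂H₂ : K₂ ≤ H₂ := m_comm_le H₂ R hRH₂
  have hH₂K₂ : H₂ ≤ normalizer (K₂ : Set X) := n_comm_normal H₂ R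
  have hKA : K₂ ≤ normalizer (A₂ : Set X) := le_sup_left.trans hΓA
  have hKB : K₂ ≤ normalizer (B₂ : Set X) := le_sup_left.trans hΓB
  have hTH₂ : T ≤ H₂ := le_sup_right.trans le_sup_right
  have hQ₂H₂ : Q₂ ≤ H₂ := le_sup_left.trans le_sup_right
  have hVH₂ : V ≤ H₂ := le_sup_left
  have hTK : T ≤ K₂ := hTcomm.trans (Subgroup.commutator_mono hTH₂ le_rfl)
  have hTB : T ≤ B₂ := by
    intro t ht
    have h1 : t ^ (B₂.relIndex K₂) ∈ B₂ := n_pow_relIndex_mem B₂ K₂ hBK hKB t (hTK ht)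
    have h2 : t ^ (p ^ i) ∈ B₂ := by
      have h3 := n_pow_card T t ht
      rw [hi] at h3
      rw [h3]; exact B₂.one_mem
    exact n_mem_of_pow_coprime B₂ t _ _ (Nat.Coprime.pow_right i hBp) h1 h2
  set Q₃ : Subgroup X := ⁅Q₂, T⁆ with hQ₃
  have hQ₃Q₂ : Q₃ ≤ Q₂ := m_comm_le Q₂ T hTQ₂
  have hcopTQ₂ : (Nat.card T).Coprime (Nat.card Q₂) := by
    rw [hi]
    exact Nat.Coprime.pow_left i
      (Nat.Coprime.coprime_dvd_right (Subgroup.card_dvd_of_le hQ₂Q) hQp.symm)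
  have hTsolv : Group.IsSolvable ↥T := by
    have : Group.IsNilpotent ↥T := hTp.isNilpotent
    infer_instance
  have h27 : ⁅Q₃, T⁆ = Q₃ := Cfsg.Agent.S0027.result T Q₂ hTQ₂ hcopTQ₂ (Or.inl hTsolv)
  have hQ₃K : Q₃ ≤ K₂ := by
    rw [hQ₃, Subgroup.commutator_le]
    intro q hq t ht
    have h1 : q * t * q⁻¹ ∈ K₂ :=
      (Subgroup.le_normalizer_iff.mp hH₂K₂) q (hQ₂H₂ hq) t (hTK ht)
    have h2 : ⁅q, t⁆ = (q * t * q⁻¹) * t⁻¹ := by rw [commutatorElement_def]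
    rw [h2]; exact K₂.mul_mem h1 (K₂.inv_mem (hTK ht))
  have hQ₃B : Q₃ ≤ B₂ := by
    have h0 : ⁅Q₃, T⁆ ≤ B₂ := by
      rw [Subgroup.commutator_le]
      intro q hq t ht
      have h1 : q * t * q⁻¹ ∈ B₂ := (Subgroup.le_normalizer_iff.mp hKB) q (hQ₃K hq) t (hTB ht)
      have h2 : ⁅q, t⁆ = (q * t * q⁻¹) * t⁻¹ := by rw [commutatorElement_def]
      rw [h2]; exact B₂.mul_mem h1 (B₂.inv_mem (hTB ht))
    rwa [h27] at h0
  have hQ₃p : (Nat.card Q₃).Coprime p :=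
    Nat.Coprime.coprime_dvd_left (Subgroup.card_dvd_of_le (hQ₃Q₂.trans hQ₂Q)) hQp
  have hQ₃A : Q₃ ≤ A₂ := by
    intro q hq
    have hBA : B₂ ≤ normalizer (A₂ : Set X) := hBK.trans hKA
    have h1 : q ^ (A₂.relIndex B₂) ∈ A₂ := n_pow_relIndex_mem A₂ B₂ hAB hBA q (hQ₃B hq)
    have h2 : q ^ (Nat.card Q₃) ∈ A₂ := by
      rw [n_pow_card Q₃ q hq]; exact A₂.one_mem
    rw [hk] at h1
    exact n_mem_of_pow_coprime A₂ q _ _ (Nat.Coprime.pow_left k hQ₃p.symm) h1 h2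
  have hVA : V ⊓ A₂ = ⊥ := by
    apply disjoint_iff.mp
    apply Subgroup.disjoint_of_coprime_natCard
    rw [hj]; exact Nat.Coprime.pow_left j hAp.symm
  have hQ₃H : Q₃ ≤ H := hQ₃Q₂.trans hQ₂H
  have hQ₃V : Q₃ ≤ normalizer (V : Set X) := hQ₃H.trans hHV
  have hVQ₃K : ⁅V, Q₃⁆ ≤ K₂ := by
    rw [Subgroup.commutator_le]
    intro v hv q hq
    have h1 : v * q * v⁻¹ ∈ K₂ :=
      (Subgroup.le_normalizer_iff.mp hH₂K₂) v (hVH₂ hv) q (hQ₃K hq)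
    have h2 : ⁅v, q⁆ = (v * q * v⁻¹) * q⁻¹ := by rw [commutatorElement_def]
    rw [h2]; exact K₂.mul_mem h1 (K₂.inv_mem (hQ₃K hq))
  have hcomm2 : ⁅⁅V, Q₃⁆, Q₃⁆ = ⊥ := by
    rw [eq_bot_iff, Subgroup.commutator_le]
    intro w hw x hx
    have hwV : w ∈ V := m_comm_le V Q₃ hQ₃V hw
    have hwK : w ∈ K₂ := hVQ₃K hw
    have hxA : x ∈ A₂ := hQ₃A hx
    have h1 : ⁅w, x⁆ ∈ V ⊓ A₂ := by
      constructor
      · have h2 : x * w⁻¹ * x⁻¹ ∈ V :=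
          (Subgroup.le_normalizer_iff.mp hQ₃V) x hx _ (V.inv_mem hwV)
        have h3 : ⁅w, x⁆ = w * (x * w⁻¹ * x⁻¹) := by rw [commutatorElement_def]; group
        rw [h3]; exact V.mul_mem hwV h2
      · have h2 : w * x * w⁻¹ ∈ A₂ := (Subgroup.le_normalizer_iff.mp hKA) w hwK x hxA
        have h3 : ⁅w, x⁆ = (w * x * w⁻¹) * x⁻¹ := by rw [commutatorElement_def]
        rw [h3]; exact A₂.mul_mem h2 (A₂.inv_mem hxA)
    rw [hVA] at h1
    exact h1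
  have hVsolv : Group.IsSolvable ↥V := by
    have : Group.IsNilpotent ↥V := hVp.isNilpotent
    infer_instance
  have hcopQ₃V : (Nat.card Q₃).Coprime (Nat.card V) := by
    rw [hj]; exact Nat.Coprime.pow_right j hQ₃p
  have h27' : ⁅⁅V, Q₃⁆, Q₃⁆ = ⁅V, Q₃⁆ :=
    Cfsg.Agent.S0027.result Q₃ V hQ₃V hcopQ₃V (Or.inr hVsolv)
  rw [hcomm2] at h27'
  have hQ₃C : Q₃ ≤ centralizer (V : Set X) := by
    rw [← Subgroup.commutator_eq_bot_iff_le_centralizer, Subgroup.commutator_comm]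
    exact h27'.symm
  have hQ₃bot : Q₃ = ⊥ := by
    rw [eq_bot_iff, ← hQV]
    exact le_inf (hQ₃Q₂.trans hQ₂Q) hQ₃C
  have hfin : Q₂ ≤ centralizer (T : Set X) :=
    Subgroup.commutator_eq_bot_iff_le_centralizer.mp hQ₃bot
  intro t ht
  rw [Subgroup.mem_centralizer_iff]
  intro q hq
  exact ((Subgroup.mem_centralizer_iff.mp (hfin hq)) t ht).symm

end Cfsg.Agent.Lib.Helper23.BG36
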