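-- B-G Theorem 3.6 from the two remaining packages P1 (LemmaW) and P2 (LemmaNonab).
import Mathlib
import Cfsg.Prelude.Def_Local
import Cfsg.Prelude.Def_OddOrderLocal
import Cfsg.Agent.Lib.Helper23.BG36.Main
import Cfsg.Agent.Lib.Helper23.BG36.LemmaMin
import Cfsg.Agent.Lib.Helper27.BG36LemmaCompl
import Cfsg.Agent.Lib.Helper76.BG36LemmaMinNormal
import Cfsg.Agent.Lib.Helper80.BG36LemmaZ
import Cfsg.Agent.Lib.Helper80.BG36LemmaFaith
import Cfsg.Agent.Lib.Helper85.BG36LemmaX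
import Cfsg.Agent.Lib.Helper85.BG36LemmaEnd
import Cfsg.Agent.Lib.Helper97.BG36LemmaFpf
import Cfsg.Agent.Lib.Helper98.BG36LemmaSeries

set_option autoImplicit false

namespace Cfsg.Agent.Lib.Helper23.BG36

universe u

/-- **B-G Theorem 3.6**, modulo the packages P1 (`LemmaW`) and P2 (`LemmaNonab`). -/
theorem final_of_W_Nonab (hW : LemmaW.{u}) (hNonab : LemmaNonab.{u})
    {G : Type u} [Group G] [Finite G] [Group.IsSolvable G]
    (hodd : Odd (Nat.card G)) (H R R₀ : Subgroup G) [H.Normal]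
    (hHall : (Nat.card H).Coprime H.index) (hR : Subgroup.IsComplement' H R)
    (hR₀ : R₀ ≤ R) (hR₀p : (Nat.card R₀).Prime)
    (hZ : IsZGroup ↥(H ⊓ Subgroup.centralizer (R₀ : Set G))) (p : ℕ) [Fact p.Prime] :
    Cfsg.PLengthLE p 1 ↥⁅H, R⁆ :=
  main hW hNonab Cfsg.Agent.Lib.Helper80.BG36Z.lemmaZ Cfsg.Agent.Lib.Helper97.BG36.lemmaFpf
    Cfsg.Agent.Lib.Helper27.BG36.lemmaCompl Cfsg.Agent.Lib.Helper85.BG36X.lemmaX
    Cfsg.Agent.Lib.Helper85.BG36.lemmaEnd lemmaMin Cfsg.Agent.Lib.Helper76.BG36.lemmaMinNormal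
    Cfsg.Agent.Lib.Helper80.BG36F.lemmaFaith Cfsg.Agent.Lib.Helper98.BG36.lemmaSeries
    hodd H R R₀ hHall hR hR₀ hR₀p hZ p

end Cfsg.Agent.Lib.Helper23.BG36
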